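import Mathlib
import Cfsg.Agent.Lib.Helper56.TC
import Cfsg.Agent.Lib.Helper56.Fi24V10.D
set_option autoImplicit false
set_option maxRecDepth 1000000

namespace Cfsg.Agent.Lib.Helper56.Fi24V10

open Cfsg.Agent.Lib.Helper56.TC Cfsg.Agent.Lib.Helper56.TC.Tabs

theorem cN_0 : allRange (fun x => forceN T.chkName x) 0 407 = true := by decide +kernel
theorem cN_407 : allRange (fun x => forceN T.chkName x) 407 410 = true := by decide +kernel
theorem cN_817 : allRange (fun x => forceN T.chkName x) 817 412 = true := by decide +kernel
theorem cN_1229 : allRange (fun x => forceN T.chkName x) 1229 412 = true := by decide +kernel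
theorem cN_1641 : allRange (fun x => forceN T.chkName x) 1641 411 = true := by decide +kernel
theorem cN_2052 : allRange (fun x => forceN T.chkName x) 2052 412 = true := by decide +kernel
theorem cN_2464 : allRange (fun x => forceN T.chkName x) 2464 412 = true := by decide +kernel
theorem cN_2876 : allRange (fun x => forceN T.chkName x) 2876 413 = true := by decide +kernel
theorem cN_3289 : allRange (fun x => forceN T.chkName x) 3289 415 = true := by decide +kernel
theorem cN_3704 : allRange (fun x => forceN T.chkName x) 3704 414 = true := by decide +kernel
theorem cN_4118 : allRange (fun x => forceN T.chkName x) 4118 413 = true := by decide +kernel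
theorem cN_4531 : allRange (fun x => forceN T.chkName x) 4531 416 = true := by decide +kernel

end Cfsg.Agent.Lib.Helper56.Fi24V10
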