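import Mathlib
import Cfsg.Agent.Lib.Helper56.TC
import Cfsg.Agent.Lib.Helper56.Fi24V10.D
set_option autoImplicit false
set_option maxRecDepth 1000000

namespace Cfsg.Agent.Lib.Helper56.Fi24V10

open Cfsg.Agent.Lib.Helper56.TC Cfsg.Agent.Lib.Helper56.TC.Tabs

theorem cN_4947 : allRange (fun x => forceN T.chkName x) 4947 415 = true := by decide +kernel
theorem cN_5362 : allRange (fun x => forceN T.chkName x) 5362 417 = true := by decide +kernel
theorem cN_5779 : allRange (fun x => forceN T.chkName x) 5779 417 = true := by decide +kernel
theorem cN_6196 : allRange (fun x => forceN T.chkName x) 6196 414 = true := by decide +kernel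
theorem cN_6610 : allRange (fun x => forceN T.chkName x) 6610 419 = true := by decide +kernel
theorem cN_7029 : allRange (fun x => forceN T.chkName x) 7029 418 = true := by decide +kernel
theorem cN_7447 : allRange (fun x => forceN T.chkName x) 7447 416 = true := by decide +kernel
theorem cN_7863 : allRange (fun x => forceN T.chkName x) 7863 418 = true := by decide +kernel
theorem cN_8281 : allRange (fun x => forceN T.chkName x) 8281 418 = true := by decide +kernel
theorem cN_8699 : allRange (fun x => forceN T.chkName x) 8699 420 = true := by decide +kernel
theorem cN_9119 : allRange (fun x => forceN T.chkName x) 9119 416 = true := by decide +kernel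
theorem cN_9535 : allRange (fun x => forceN T.chkName x) 9535 420 = true := by decide +kernel

end Cfsg.Agent.Lib.Helper56.Fi24V10
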