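import Mathlib
import Cfsg.Agent.Lib.Helper56.TC
import Cfsg.Agent.Lib.Helper56.Fi24V10.D
set_option autoImplicit false
set_option maxRecDepth 1000000

namespace Cfsg.Agent.Lib.Helper56.Fi24V10

open Cfsg.Agent.Lib.Helper56.TC Cfsg.Agent.Lib.Helper56.TC.Tabs

theorem cN_55521 : allRange (fun x => forceN T.chkName x) 55521 541 = true := by decide +kernel
theorem cN_56062 : allRange (fun x => forceN T.chkName x) 56062 540 = true := by decide +kernel
theorem cN_56602 : allRange (fun x => forceN T.chkName x) 56602 545 = true := by decide +kernel
theorem cN_57147 : allRange (fun x => forceN T.chkName x) 57147 549 = true := by decide +kernel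
theorem cN_57696 : allRange (fun x => forceN T.chkName x) 57696 538 = true := by decide +kernel
theorem cN_58234 : allRange (fun x => forceN T.chkName x) 58234 535 = true := by decide +kernel
theorem cN_58769 : allRange (fun x => forceN T.chkName x) 58769 532 = true := by decide +kernel
theorem cN_59301 : allRange (fun x => forceN T.chkName x) 59301 529 = true := by decide +kernel
theorem cN_59830 : allRange (fun x => forceN T.chkName x) 59830 536 = true := by decide +kernel
theorem cN_60366 : allRange (fun x => forceN T.chkName x) 60366 520 = true := by decide +kernel
theorem cN_60886 : allRange (fun x => forceN T.chkName x) 60886 529 = true := by decide +kernel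
theorem cN_61415 : allRange (fun x => forceN T.chkName x) 61415 532 = true := by decide +kernel

end Cfsg.Agent.Lib.Helper56.Fi24V10
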