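import Mathlib
import Cfsg.Agent.Lib.Helper56.TC
import Cfsg.Agent.Lib.Helper56.Fi24V10.D
set_option autoImplicit false
set_option maxRecDepth 1000000

namespace Cfsg.Agent.Lib.Helper56.Fi24V10

open Cfsg.Agent.Lib.Helper56.TC Cfsg.Agent.Lib.Helper56.TC.Tabs

theorem cN_61947 : allRange (fun x => forceN T.chkName x) 61947 520 = true := by decide +kernel
theorem cN_62467 : allRange (fun x => forceN T.chkName x) 62467 522 = true := by decide +kernel
theorem cN_62989 : allRange (fun x => forceN T.chkName x) 62989 536 = true := by decide +kernel
theorem cN_63525 : allRange (fun x => forceN T.chkName x) 63525 546 = true := by decide +kernel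
theorem cN_64071 : allRange (fun x => forceN T.chkName x) 64071 545 = true := by decide +kernel
theorem cN_64616 : allRange (fun x => forceN T.chkName x) 64616 550 = true := by decide +kernel
theorem cN_65166 : allRange (fun x => forceN T.chkName x) 65166 532 = true := by decide +kernel
theorem cN_65698 : allRange (fun x => forceN T.chkName x) 65698 532 = true := by decide +kernel
theorem cN_66230 : allRange (fun x => forceN T.chkName x) 66230 535 = true := by decide +kernel
theorem cN_66765 : allRange (fun x => forceN T.chkName x) 66765 526 = true := by decide +kernel
theorem cN_67291 : allRange (fun x => forceN T.chkName x) 67291 527 = true := by decide +kernel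
theorem cN_67818 : allRange (fun x => forceN T.chkName x) 67818 536 = true := by decide +kernel

end Cfsg.Agent.Lib.Helper56.Fi24V10
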