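import Mathlib
import Cfsg.Agent.Lib.Helper56.TC
import Cfsg.Agent.Lib.Helper56.Fi24V10.D
set_option autoImplicit false
set_option maxRecDepth 1000000

namespace Cfsg.Agent.Lib.Helper56.Fi24V10

open Cfsg.Agent.Lib.Helper56.TC Cfsg.Agent.Lib.Helper56.TC.Tabs

theorem cN_68354 : allRange (fun x => forceN T.chkName x) 68354 522 = true := by decide +kernel
theorem cN_68876 : allRange (fun x => forceN T.chkName x) 68876 529 = true := by decide +kernel
theorem cN_69405 : allRange (fun x => forceN T.chkName x) 69405 536 = true := by decide +kernel
theorem cN_69941 : allRange (fun x => forceN T.chkName x) 69941 526 = true := by decide +kernel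
theorem cN_70467 : allRange (fun x => forceN T.chkName x) 70467 527 = true := by decide +kernel
theorem cN_70994 : allRange (fun x => forceN T.chkName x) 70994 531 = true := by decide +kernel
theorem cN_71525 : allRange (fun x => forceN T.chkName x) 71525 542 = true := by decide +kernel
theorem cN_72067 : allRange (fun x => forceN T.chkName x) 72067 549 = true := by decide +kernel
theorem cN_72616 : allRange (fun x => forceN T.chkName x) 72616 542 = true := by decide +kernel
theorem cN_73158 : allRange (fun x => forceN T.chkName x) 73158 543 = true := by decide +kernel
theorem cN_73701 : allRange (fun x => forceN T.chkName x) 73701 534 = true := by decide +kernel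
theorem cN_74235 : allRange (fun x => forceN T.chkName x) 74235 536 = true := by decide +kernel

end Cfsg.Agent.Lib.Helper56.Fi24V10
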