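import Mathlib
import Cfsg.Agent.Lib.Helper56.TC
import Cfsg.Agent.Lib.Helper56.Fi24V10.D
set_option autoImplicit false
set_option maxRecDepth 1000000

namespace Cfsg.Agent.Lib.Helper56.Fi24V10

open Cfsg.Agent.Lib.Helper56.TC Cfsg.Agent.Lib.Helper56.TC.Tabs

theorem cN_74771 : allRange (fun x => forceN T.chkName x) 74771 538 = true := by decide +kernel
theorem cN_75309 : allRange (fun x => forceN T.chkName x) 75309 527 = true := by decide +kernel
theorem cN_75836 : allRange (fun x => forceN T.chkName x) 75836 531 = true := by decide +kernel
theorem cN_76367 : allRange (fun x => forceN T.chkName x) 76367 536 = true := by decide +kernel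
theorem cN_76903 : allRange (fun x => forceN T.chkName x) 76903 533 = true := by decide +kernel
theorem cN_77436 : allRange (fun x => forceN T.chkName x) 77436 526 = true := by decide +kernel
theorem cN_77962 : allRange (fun x => forceN T.chkName x) 77962 533 = true := by decide +kernel
theorem cN_78495 : allRange (fun x => forceN T.chkName x) 78495 539 = true := by decide +kernel
theorem cN_79034 : allRange (fun x => forceN T.chkName x) 79034 531 = true := by decide +kernel
theorem cN_79565 : allRange (fun x => forceN T.chkName x) 79565 536 = true := by decide +kernel
theorem cN_80101 : allRange (fun x => forceN T.chkName x) 80101 532 = true := by decide +kernel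
theorem cN_80633 : allRange (fun x => forceN T.chkName x) 80633 542 = true := by decide +kernel

end Cfsg.Agent.Lib.Helper56.Fi24V10
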