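import Mathlib
import Cfsg.Agent.Lib.Helper56.TC
import Cfsg.Agent.Lib.Helper56.Fi24V10.D
set_option autoImplicit false
set_option maxRecDepth 1000000

namespace Cfsg.Agent.Lib.Helper56.Fi24V10

open Cfsg.Agent.Lib.Helper56.TC Cfsg.Agent.Lib.Helper56.TC.Tabs

theorem cN_81175 : allRange (fun x => forceN T.chkName x) 81175 554 = true := by decide +kernel
theorem cN_81729 : allRange (fun x => forceN T.chkName x) 81729 543 = true := by decide +kernel
theorem cN_82272 : allRange (fun x => forceN T.chkName x) 82272 542 = true := by decide +kernel
theorem cN_82814 : allRange (fun x => forceN T.chkName x) 82814 534 = true := by decide +kernel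
theorem cN_83348 : allRange (fun x => forceN T.chkName x) 83348 539 = true := by decide +kernel
theorem cN_83887 : allRange (fun x => forceN T.chkName x) 83887 546 = true := by decide +kernel
theorem cN_84433 : allRange (fun x => forceN T.chkName x) 84433 535 = true := by decide +kernel
theorem cN_84968 : allRange (fun x => forceN T.chkName x) 84968 535 = true := by decide +kernel
theorem cN_85503 : allRange (fun x => forceN T.chkName x) 85503 536 = true := by decide +kernel
theorem cN_86039 : allRange (fun x => forceN T.chkName x) 86039 541 = true := by decide +kernel
theorem cN_86580 : allRange (fun x => forceN T.chkName x) 86580 544 = true := by decide +kernel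
theorem cN_87124 : allRange (fun x => forceN T.chkName x) 87124 528 = true := by decide +kernel

end Cfsg.Agent.Lib.Helper56.Fi24V10
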