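import Mathlib
import Cfsg.Agent.Lib.Helper56.TC
import Cfsg.Agent.Lib.Helper56.Fi24V10.D
set_option autoImplicit false
set_option maxRecDepth 1000000

namespace Cfsg.Agent.Lib.Helper56.Fi24V10

open Cfsg.Agent.Lib.Helper56.TC Cfsg.Agent.Lib.Helper56.TC.Tabs

theorem cN_87652 : allRange (fun x => forceN T.chkName x) 87652 538 = true := by decide +kernel
theorem cN_88190 : allRange (fun x => forceN T.chkName x) 88190 541 = true := by decide +kernel
theorem cN_88731 : allRange (fun x => forceN T.chkName x) 88731 538 = true := by decide +kernel
theorem cN_89269 : allRange (fun x => forceN T.chkName x) 89269 545 = true := by decide +kernel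
theorem cN_89814 : allRange (fun x => forceN T.chkName x) 89814 538 = true := by decide +kernel
theorem cN_90352 : allRange (fun x => forceN T.chkName x) 90352 548 = true := by decide +kernel
theorem cN_90900 : allRange (fun x => forceN T.chkName x) 90900 552 = true := by decide +kernel
theorem cN_91452 : allRange (fun x => forceN T.chkName x) 91452 545 = true := by decide +kernel
theorem cN_91997 : allRange (fun x => forceN T.chkName x) 91997 548 = true := by decide +kernel
theorem cN_92545 : allRange (fun x => forceN T.chkName x) 92545 539 = true := by decide +kernel
theorem cN_93084 : allRange (fun x => forceN T.chkName x) 93084 544 = true := by decide +kernel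
theorem cN_93628 : allRange (fun x => forceN T.chkName x) 93628 548 = true := by decide +kernel

end Cfsg.Agent.Lib.Helper56.Fi24V10
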