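import Mathlib
import Cfsg.Agent.Lib.Helper56.TC
import Cfsg.Agent.Lib.Helper56.Fi24V10.D
set_option autoImplicit false
set_option maxRecDepth 1000000

namespace Cfsg.Agent.Lib.Helper56.Fi24V10

open Cfsg.Agent.Lib.Helper56.TC Cfsg.Agent.Lib.Helper56.TC.Tabs

theorem cN_94176 : allRange (fun x => forceN T.chkName x) 94176 544 = true := by decide +kernel
theorem cN_94720 : allRange (fun x => forceN T.chkName x) 94720 538 = true := by decide +kernel
theorem cN_95258 : allRange (fun x => forceN T.chkName x) 95258 546 = true := by decide +kernel
theorem cN_95804 : allRange (fun x => forceN T.chkName x) 95804 543 = true := by decide +kernel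
theorem cN_96347 : allRange (fun x => forceN T.chkName x) 96347 551 = true := by decide +kernel
theorem cN_96898 : allRange (fun x => forceN T.chkName x) 96898 534 = true := by decide +kernel
theorem cN_97432 : allRange (fun x => forceN T.chkName x) 97432 540 = true := by decide +kernel
theorem cN_97972 : allRange (fun x => forceN T.chkName x) 97972 543 = true := by decide +kernel
theorem cN_98515 : allRange (fun x => forceN T.chkName x) 98515 539 = true := by decide +kernel
theorem cN_99054 : allRange (fun x => forceN T.chkName x) 99054 542 = true := by decide +kernel
theorem cN_99596 : allRange (fun x => forceN T.chkName x) 99596 536 = true := by decide +kernel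
theorem cN_100132 : allRange (fun x => forceN T.chkName x) 100132 550 = true := by decide +kernel

end Cfsg.Agent.Lib.Helper56.Fi24V10
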