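import Mathlib
import Cfsg.Agent.Lib.Helper56.TC
import Cfsg.Agent.Lib.Helper56.Fi24V10.D
set_option autoImplicit false
set_option maxRecDepth 1000000

namespace Cfsg.Agent.Lib.Helper56.Fi24V10

open Cfsg.Agent.Lib.Helper56.TC Cfsg.Agent.Lib.Helper56.TC.Tabs

theorem cN_100682 : allRange (fun x => forceN T.chkName x) 100682 556 = true := by decide +kernel
theorem cN_101238 : allRange (fun x => forceN T.chkName x) 101238 545 = true := by decide +kernel
theorem cN_101783 : allRange (fun x => forceN T.chkName x) 101783 547 = true := by decide +kernel
theorem cN_102330 : allRange (fun x => forceN T.chkName x) 102330 545 = true := by decide +kernel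
theorem cN_102875 : allRange (fun x => forceN T.chkName x) 102875 547 = true := by decide +kernel
theorem cN_103422 : allRange (fun x => forceN T.chkName x) 103422 553 = true := by decide +kernel
theorem cN_103975 : allRange (fun x => forceN T.chkName x) 103975 542 = true := by decide +kernel
theorem cN_104517 : allRange (fun x => forceN T.chkName x) 104517 546 = true := by decide +kernel
theorem cN_105063 : allRange (fun x => forceN T.chkName x) 105063 545 = true := by decide +kernel
theorem cN_105608 : allRange (fun x => forceN T.chkName x) 105608 552 = true := by decide +kernel
theorem cN_106160 : allRange (fun x => forceN T.chkName x) 106160 543 = true := by decide +kernel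
theorem cN_106703 : allRange (fun x => forceN T.chkName x) 106703 539 = true := by decide +kernel

end Cfsg.Agent.Lib.Helper56.Fi24V10
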