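import Mathlib
import Cfsg.Agent.Lib.Helper56.TC
import Cfsg.Agent.Lib.Helper56.Fi24V10.D
set_option autoImplicit false
set_option maxRecDepth 1000000

namespace Cfsg.Agent.Lib.Helper56.Fi24V10

open Cfsg.Agent.Lib.Helper56.TC Cfsg.Agent.Lib.Helper56.TC.Tabs

theorem cN_107242 : allRange (fun x => forceN T.chkName x) 107242 537 = true := by decide +kernel
theorem cN_107779 : allRange (fun x => forceN T.chkName x) 107779 543 = true := by decide +kernel
theorem cN_108322 : allRange (fun x => forceN T.chkName x) 108322 540 = true := by decide +kernel
theorem cN_108862 : allRange (fun x => forceN T.chkName x) 108862 533 = true := by decide +kernel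
theorem cN_109395 : allRange (fun x => forceN T.chkName x) 109395 554 = true := by decide +kernel
theorem cN_109949 : allRange (fun x => forceN T.chkName x) 109949 550 = true := by decide +kernel
theorem cN_110499 : allRange (fun x => forceN T.chkName x) 110499 543 = true := by decide +kernel
theorem cN_111042 : allRange (fun x => forceN T.chkName x) 111042 545 = true := by decide +kernel
theorem cN_111587 : allRange (fun x => forceN T.chkName x) 111587 549 = true := by decide +kernel
theorem cN_112136 : allRange (fun x => forceN T.chkName x) 112136 552 = true := by decide +kernel
theorem cN_112688 : allRange (fun x => forceN T.chkName x) 112688 546 = true := by decide +kernel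
theorem cN_113234 : allRange (fun x => forceN T.chkName x) 113234 543 = true := by decide +kernel

end Cfsg.Agent.Lib.Helper56.Fi24V10
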