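import Mathlib
import Cfsg.Agent.Lib.Helper56.TC
import Cfsg.Agent.Lib.Helper56.Fi24V10.D
set_option autoImplicit false
set_option maxRecDepth 1000000

namespace Cfsg.Agent.Lib.Helper56.Fi24V10

open Cfsg.Agent.Lib.Helper56.TC Cfsg.Agent.Lib.Helper56.TC.Tabs

theorem cN_113777 : allRange (fun x => forceN T.chkName x) 113777 541 = true := by decide +kernel
theorem cN_114318 : allRange (fun x => forceN T.chkName x) 114318 550 = true := by decide +kernel
theorem cN_114868 : allRange (fun x => forceN T.chkName x) 114868 547 = true := by decide +kernel
theorem cN_115415 : allRange (fun x => forceN T.chkName x) 115415 543 = true := by decide +kernel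
theorem cN_115958 : allRange (fun x => forceN T.chkName x) 115958 536 = true := by decide +kernel
theorem cN_116494 : allRange (fun x => forceN T.chkName x) 116494 544 = true := by decide +kernel
theorem cN_117038 : allRange (fun x => forceN T.chkName x) 117038 540 = true := by decide +kernel
theorem cN_117578 : allRange (fun x => forceN T.chkName x) 117578 534 = true := by decide +kernel
theorem cN_118112 : allRange (fun x => forceN T.chkName x) 118112 554 = true := by decide +kernel
theorem cN_118666 : allRange (fun x => forceN T.chkName x) 118666 546 = true := by decide +kernel
theorem cN_119212 : allRange (fun x => forceN T.chkName x) 119212 554 = true := by decide +kernel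
theorem cN_119766 : allRange (fun x => forceN T.chkName x) 119766 549 = true := by decide +kernel

end Cfsg.Agent.Lib.Helper56.Fi24V10
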