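import Mathlib
import Cfsg.Agent.Lib.Helper56.TC
import Cfsg.Agent.Lib.Helper56.Fi24V10.D
set_option autoImplicit false
set_option maxRecDepth 1000000

namespace Cfsg.Agent.Lib.Helper56.Fi24V10

open Cfsg.Agent.Lib.Helper56.TC Cfsg.Agent.Lib.Helper56.TC.Tabs

theorem cN_9955 : allRange (fun x => forceN T.chkName x) 9955 421 = true := by decide +kernel
theorem cN_10376 : allRange (fun x => forceN T.chkName x) 10376 419 = true := by decide +kernel
theorem cN_10795 : allRange (fun x => forceN T.chkName x) 10795 418 = true := by decide +kernel
theorem cN_11213 : allRange (fun x => forceN T.chkName x) 11213 416 = true := by decide +kernel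
theorem cN_11629 : allRange (fun x => forceN T.chkName x) 11629 424 = true := by decide +kernel
theorem cN_12053 : allRange (fun x => forceN T.chkName x) 12053 418 = true := by decide +kernel
theorem cN_12471 : allRange (fun x => forceN T.chkName x) 12471 419 = true := by decide +kernel
theorem cN_12890 : allRange (fun x => forceN T.chkName x) 12890 420 = true := by decide +kernel
theorem cN_13310 : allRange (fun x => forceN T.chkName x) 13310 418 = true := by decide +kernel
theorem cN_13728 : allRange (fun x => forceN T.chkName x) 13728 425 = true := by decide +kernel
theorem cN_14153 : allRange (fun x => forceN T.chkName x) 14153 422 = true := by decide +kernel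
theorem cN_14575 : allRange (fun x => forceN T.chkName x) 14575 421 = true := by decide +kernel

end Cfsg.Agent.Lib.Helper56.Fi24V10
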