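import Mathlib
import Cfsg.Agent.Lib.Helper56.TC
import Cfsg.Agent.Lib.Helper56.Fi24V10.D
set_option autoImplicit false
set_option maxRecDepth 1000000

namespace Cfsg.Agent.Lib.Helper56.Fi24V10

open Cfsg.Agent.Lib.Helper56.TC Cfsg.Agent.Lib.Helper56.TC.Tabs

theorem cN_120315 : allRange (fun x => forceN T.chkName x) 120315 549 = true := by decide +kernel
theorem cN_120864 : allRange (fun x => forceN T.chkName x) 120864 550 = true := by decide +kernel
theorem cN_121414 : allRange (fun x => forceN T.chkName x) 121414 544 = true := by decide +kernel
theorem cN_121958 : allRange (fun x => forceN T.chkName x) 121958 542 = true := by decide +kernel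
theorem cN_122500 : allRange (fun x => forceN T.chkName x) 122500 547 = true := by decide +kernel
theorem cN_123047 : allRange (fun x => forceN T.chkName x) 123047 551 = true := by decide +kernel
theorem cN_123598 : allRange (fun x => forceN T.chkName x) 123598 550 = true := by decide +kernel
theorem cN_124148 : allRange (fun x => forceN T.chkName x) 124148 544 = true := by decide +kernel
theorem cN_124692 : allRange (fun x => forceN T.chkName x) 124692 544 = true := by decide +kernel
theorem cN_125236 : allRange (fun x => forceN T.chkName x) 125236 544 = true := by decide +kernel
theorem cN_125780 : allRange (fun x => forceN T.chkName x) 125780 544 = true := by decide +kernel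
theorem cN_126324 : allRange (fun x => forceN T.chkName x) 126324 553 = true := by decide +kernel

end Cfsg.Agent.Lib.Helper56.Fi24V10
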