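import Mathlib
import Cfsg.Agent.Lib.Helper56.TC
import Cfsg.Agent.Lib.Helper56.Fi24V10.D
set_option autoImplicit false
set_option maxRecDepth 1000000

namespace Cfsg.Agent.Lib.Helper56.Fi24V10

open Cfsg.Agent.Lib.Helper56.TC Cfsg.Agent.Lib.Helper56.TC.Tabs

theorem cN_126877 : allRange (fun x => forceN T.chkName x) 126877 554 = true := by decide +kernel
theorem cN_127431 : allRange (fun x => forceN T.chkName x) 127431 551 = true := by decide +kernel
theorem cN_127982 : allRange (fun x => forceN T.chkName x) 127982 553 = true := by decide +kernel
theorem cN_128535 : allRange (fun x => forceN T.chkName x) 128535 550 = true := by decide +kernel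
theorem cN_129085 : allRange (fun x => forceN T.chkName x) 129085 548 = true := by decide +kernel
theorem cN_129633 : allRange (fun x => forceN T.chkName x) 129633 543 = true := by decide +kernel
theorem cN_130176 : allRange (fun x => forceN T.chkName x) 130176 548 = true := by decide +kernel
theorem cN_130724 : allRange (fun x => forceN T.chkName x) 130724 567 = true := by decide +kernel
theorem cN_131291 : allRange (fun x => forceN T.chkName x) 131291 565 = true := by decide +kernel
theorem cN_131856 : allRange (fun x => forceN T.chkName x) 131856 564 = true := by decide +kernel
theorem cN_132420 : allRange (fun x => forceN T.chkName x) 132420 567 = true := by decide +kernel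
theorem cN_132987 : allRange (fun x => forceN T.chkName x) 132987 576 = true := by decide +kernel

end Cfsg.Agent.Lib.Helper56.Fi24V10
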