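import Mathlib
import Cfsg.Agent.Lib.Helper56.TC
import Cfsg.Agent.Lib.Helper56.Fi24V10.D
set_option autoImplicit false
set_option maxRecDepth 1000000

namespace Cfsg.Agent.Lib.Helper56.Fi24V10

open Cfsg.Agent.Lib.Helper56.TC Cfsg.Agent.Lib.Helper56.TC.Tabs

theorem cN_133563 : allRange (fun x => forceN T.chkName x) 133563 577 = true := by decide +kernel
theorem cN_134140 : allRange (fun x => forceN T.chkName x) 134140 576 = true := by decide +kernel
theorem cN_134716 : allRange (fun x => forceN T.chkName x) 134716 576 = true := by decide +kernel
theorem cN_135292 : allRange (fun x => forceN T.chkName x) 135292 574 = true := by decide +kernel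
theorem cN_135866 : allRange (fun x => forceN T.chkName x) 135866 58 = true := by decide +kernel
theorem cV_0 : allRange (fun x => forceN T.chkV x) 0 412 = true := by decide +kernel
theorem cV_412 : allRange (fun x => forceN T.chkV x) 412 412 = true := by decide +kernel
theorem cV_824 : allRange (fun x => forceN T.chkV x) 824 412 = true := by decide +kernel
theorem cV_1236 : allRange (fun x => forceN T.chkV x) 1236 412 = true := by decide +kernel
theorem cV_1648 : allRange (fun x => forceN T.chkV x) 1648 412 = true := by decide +kernel
theorem cV_2060 : allRange (fun x => forceN T.chkV x) 2060 412 = true := by decide +kernel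
theorem cV_2472 : allRange (fun x => forceN T.chkV x) 2472 412 = true := by decide +kernel

end Cfsg.Agent.Lib.Helper56.Fi24V10
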