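import Mathlib
import Cfsg.Agent.Lib.Helper56.TC
import Cfsg.Agent.Lib.Helper56.Fi24V10.D
set_option autoImplicit false
set_option maxRecDepth 1000000

namespace Cfsg.Agent.Lib.Helper56.Fi24V10

open Cfsg.Agent.Lib.Helper56.TC Cfsg.Agent.Lib.Helper56.TC.Tabs

theorem cV_2884 : allRange (fun x => forceN T.chkV x) 2884 412 = true := by decide +kernel
theorem cV_3296 : allRange (fun x => forceN T.chkV x) 3296 412 = true := by decide +kernel
theorem cV_3708 : allRange (fun x => forceN T.chkV x) 3708 412 = true := by decide +kernel
theorem cV_4120 : allRange (fun x => forceN T.chkV x) 4120 412 = true := by decide +kernel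
theorem cV_4532 : allRange (fun x => forceN T.chkV x) 4532 412 = true := by decide +kernel
theorem cV_4944 : allRange (fun x => forceN T.chkV x) 4944 412 = true := by decide +kernel
theorem cV_5356 : allRange (fun x => forceN T.chkV x) 5356 412 = true := by decide +kernel
theorem cV_5768 : allRange (fun x => forceN T.chkV x) 5768 412 = true := by decide +kernel
theorem cV_6180 : allRange (fun x => forceN T.chkV x) 6180 412 = true := by decide +kernel
theorem cV_6592 : allRange (fun x => forceN T.chkV x) 6592 412 = true := by decide +kernel
theorem cV_7004 : allRange (fun x => forceN T.chkV x) 7004 412 = true := by decide +kernel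
theorem cV_7416 : allRange (fun x => forceN T.chkV x) 7416 412 = true := by decide +kernel

end Cfsg.Agent.Lib.Helper56.Fi24V10
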