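import Mathlib
import Cfsg.Agent.Lib.Helper56.TC
import Cfsg.Agent.Lib.Helper56.Fi24V10.D
set_option autoImplicit false
set_option maxRecDepth 1000000

namespace Cfsg.Agent.Lib.Helper56.Fi24V10

open Cfsg.Agent.Lib.Helper56.TC Cfsg.Agent.Lib.Helper56.TC.Tabs

theorem cV_7828 : allRange (fun x => forceN T.chkV x) 7828 412 = true := by decide +kernel
theorem cV_8240 : allRange (fun x => forceN T.chkV x) 8240 412 = true := by decide +kernel
theorem cV_8652 : allRange (fun x => forceN T.chkV x) 8652 412 = true := by decide +kernel
theorem cV_9064 : allRange (fun x => forceN T.chkV x) 9064 412 = true := by decide +kernel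
theorem cV_9476 : allRange (fun x => forceN T.chkV x) 9476 412 = true := by decide +kernel
theorem cV_9888 : allRange (fun x => forceN T.chkV x) 9888 412 = true := by decide +kernel
theorem cV_10300 : allRange (fun x => forceN T.chkV x) 10300 412 = true := by decide +kernel
theorem cV_10712 : allRange (fun x => forceN T.chkV x) 10712 412 = true := by decide +kernel
theorem cV_11124 : allRange (fun x => forceN T.chkV x) 11124 412 = true := by decide +kernel
theorem cV_11536 : allRange (fun x => forceN T.chkV x) 11536 412 = true := by decide +kernel
theorem cV_11948 : allRange (fun x => forceN T.chkV x) 11948 412 = true := by decide +kernel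
theorem cV_12360 : allRange (fun x => forceN T.chkV x) 12360 412 = true := by decide +kernel

end Cfsg.Agent.Lib.Helper56.Fi24V10
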