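import Mathlib
import Cfsg.Agent.Lib.Helper56.TC
import Cfsg.Agent.Lib.Helper56.Fi24V10.D
set_option autoImplicit false
set_option maxRecDepth 1000000

namespace Cfsg.Agent.Lib.Helper56.Fi24V10

open Cfsg.Agent.Lib.Helper56.TC Cfsg.Agent.Lib.Helper56.TC.Tabs

theorem cV_12772 : allRange (fun x => forceN T.chkV x) 12772 412 = true := by decide +kernel
theorem cV_13184 : allRange (fun x => forceN T.chkV x) 13184 412 = true := by decide +kernel
theorem cV_13596 : allRange (fun x => forceN T.chkV x) 13596 412 = true := by decide +kernel
theorem cV_14008 : allRange (fun x => forceN T.chkV x) 14008 412 = true := by decide +kernel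
theorem cV_14420 : allRange (fun x => forceN T.chkV x) 14420 412 = true := by decide +kernel
theorem cV_14832 : allRange (fun x => forceN T.chkV x) 14832 412 = true := by decide +kernel
theorem cV_15244 : allRange (fun x => forceN T.chkV x) 15244 412 = true := by decide +kernel
theorem cV_15656 : allRange (fun x => forceN T.chkV x) 15656 412 = true := by decide +kernel
theorem cV_16068 : allRange (fun x => forceN T.chkV x) 16068 412 = true := by decide +kernel
theorem cV_16480 : allRange (fun x => forceN T.chkV x) 16480 412 = true := by decide +kernel
theorem cV_16892 : allRange (fun x => forceN T.chkV x) 16892 412 = true := by decide +kernel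
theorem cV_17304 : allRange (fun x => forceN T.chkV x) 17304 412 = true := by decide +kernel

end Cfsg.Agent.Lib.Helper56.Fi24V10
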