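import Mathlib
import Cfsg.Agent.Lib.Helper56.TC
import Cfsg.Agent.Lib.Helper56.Fi24V10.D
set_option autoImplicit false
set_option maxRecDepth 1000000

namespace Cfsg.Agent.Lib.Helper56.Fi24V10

open Cfsg.Agent.Lib.Helper56.TC Cfsg.Agent.Lib.Helper56.TC.Tabs

theorem cV_17716 : allRange (fun x => forceN T.chkV x) 17716 412 = true := by decide +kernel
theorem cV_18128 : allRange (fun x => forceN T.chkV x) 18128 412 = true := by decide +kernel
theorem cV_18540 : allRange (fun x => forceN T.chkV x) 18540 412 = true := by decide +kernel
theorem cV_18952 : allRange (fun x => forceN T.chkV x) 18952 412 = true := by decide +kernel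
theorem cV_19364 : allRange (fun x => forceN T.chkV x) 19364 412 = true := by decide +kernel
theorem cV_19776 : allRange (fun x => forceN T.chkV x) 19776 412 = true := by decide +kernel
theorem cV_20188 : allRange (fun x => forceN T.chkV x) 20188 412 = true := by decide +kernel
theorem cV_20600 : allRange (fun x => forceN T.chkV x) 20600 412 = true := by decide +kernel
theorem cV_21012 : allRange (fun x => forceN T.chkV x) 21012 412 = true := by decide +kernel
theorem cV_21424 : allRange (fun x => forceN T.chkV x) 21424 412 = true := by decide +kernel
theorem cV_21836 : allRange (fun x => forceN T.chkV x) 21836 412 = true := by decide +kernel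
theorem cV_22248 : allRange (fun x => forceN T.chkV x) 22248 412 = true := by decide +kernel

end Cfsg.Agent.Lib.Helper56.Fi24V10
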