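import Mathlib
import Cfsg.Agent.Lib.Helper56.TC
import Cfsg.Agent.Lib.Helper56.Fi24V10.D
set_option autoImplicit false
set_option maxRecDepth 1000000

namespace Cfsg.Agent.Lib.Helper56.Fi24V10

open Cfsg.Agent.Lib.Helper56.TC Cfsg.Agent.Lib.Helper56.TC.Tabs

theorem cV_22660 : allRange (fun x => forceN T.chkV x) 22660 412 = true := by decide +kernel
theorem cV_23072 : allRange (fun x => forceN T.chkV x) 23072 412 = true := by decide +kernel
theorem cV_23484 : allRange (fun x => forceN T.chkV x) 23484 412 = true := by decide +kernel
theorem cV_23896 : allRange (fun x => forceN T.chkV x) 23896 412 = true := by decide +kernel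
theorem cV_24308 : allRange (fun x => forceN T.chkV x) 24308 412 = true := by decide +kernel
theorem cV_24720 : allRange (fun x => forceN T.chkV x) 24720 412 = true := by decide +kernel
theorem cV_25132 : allRange (fun x => forceN T.chkV x) 25132 412 = true := by decide +kernel
theorem cV_25544 : allRange (fun x => forceN T.chkV x) 25544 412 = true := by decide +kernel
theorem cV_25956 : allRange (fun x => forceN T.chkV x) 25956 412 = true := by decide +kernel
theorem cV_26368 : allRange (fun x => forceN T.chkV x) 26368 412 = true := by decide +kernel
theorem cV_26780 : allRange (fun x => forceN T.chkV x) 26780 412 = true := by decide +kernel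
theorem cV_27192 : allRange (fun x => forceN T.chkV x) 27192 412 = true := by decide +kernel

end Cfsg.Agent.Lib.Helper56.Fi24V10
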