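import Mathlib
import Cfsg.Agent.Lib.Helper56.TC
import Cfsg.Agent.Lib.Helper56.Fi24V10.D
set_option autoImplicit false
set_option maxRecDepth 1000000

namespace Cfsg.Agent.Lib.Helper56.Fi24V10

open Cfsg.Agent.Lib.Helper56.TC Cfsg.Agent.Lib.Helper56.TC.Tabs

theorem cV_27604 : allRange (fun x => forceN T.chkV x) 27604 412 = true := by decide +kernel
theorem cV_28016 : allRange (fun x => forceN T.chkV x) 28016 412 = true := by decide +kernel
theorem cV_28428 : allRange (fun x => forceN T.chkV x) 28428 412 = true := by decide +kernel
theorem cV_28840 : allRange (fun x => forceN T.chkV x) 28840 412 = true := by decide +kernel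
theorem cV_29252 : allRange (fun x => forceN T.chkV x) 29252 412 = true := by decide +kernel
theorem cV_29664 : allRange (fun x => forceN T.chkV x) 29664 412 = true := by decide +kernel
theorem cV_30076 : allRange (fun x => forceN T.chkV x) 30076 412 = true := by decide +kernel
theorem cV_30488 : allRange (fun x => forceN T.chkV x) 30488 412 = true := by decide +kernel
theorem cV_30900 : allRange (fun x => forceN T.chkV x) 30900 412 = true := by decide +kernel
theorem cV_31312 : allRange (fun x => forceN T.chkV x) 31312 359 = true := by decide +kernel

end Cfsg.Agent.Lib.Helper56.Fi24V10
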