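import Mathlib
import Cfsg.Agent.Lib.Helper56.TC
import Cfsg.Agent.Lib.Helper56.Fi24V10.D
set_option autoImplicit false
set_option maxRecDepth 1000000

namespace Cfsg.Agent.Lib.Helper56.Fi24V10

open Cfsg.Agent.Lib.Helper56.TC Cfsg.Agent.Lib.Helper56.TC.Tabs

theorem cN_14996 : allRange (fun x => forceN T.chkName x) 14996 422 = true := by decide +kernel
theorem cN_15418 : allRange (fun x => forceN T.chkName x) 15418 420 = true := by decide +kernel
theorem cN_15838 : allRange (fun x => forceN T.chkName x) 15838 425 = true := by decide +kernel
theorem cN_16263 : allRange (fun x => forceN T.chkName x) 16263 424 = true := by decide +kernel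
theorem cN_16687 : allRange (fun x => forceN T.chkName x) 16687 422 = true := by decide +kernel
theorem cN_17109 : allRange (fun x => forceN T.chkName x) 17109 425 = true := by decide +kernel
theorem cN_17534 : allRange (fun x => forceN T.chkName x) 17534 421 = true := by decide +kernel
theorem cN_17955 : allRange (fun x => forceN T.chkName x) 17955 428 = true := by decide +kernel
theorem cN_18383 : allRange (fun x => forceN T.chkName x) 18383 427 = true := by decide +kernel
theorem cN_18810 : allRange (fun x => forceN T.chkName x) 18810 424 = true := by decide +kernel
theorem cN_19234 : allRange (fun x => forceN T.chkName x) 19234 424 = true := by decide +kernel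
theorem cN_19658 : allRange (fun x => forceN T.chkName x) 19658 422 = true := by decide +kernel

end Cfsg.Agent.Lib.Helper56.Fi24V10
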