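import Mathlib
import Cfsg.Agent.Lib.Helper56.TC
import Cfsg.Agent.Lib.Helper56.Fi24V10.D
set_option autoImplicit false
set_option maxRecDepth 1000000

namespace Cfsg.Agent.Lib.Helper56.Fi24V10

open Cfsg.Agent.Lib.Helper56.TC Cfsg.Agent.Lib.Helper56.TC.Tabs

theorem cN_20080 : allRange (fun x => forceN T.chkName x) 20080 434 = true := by decide +kernel
theorem cN_20514 : allRange (fun x => forceN T.chkName x) 20514 427 = true := by decide +kernel
theorem cN_20941 : allRange (fun x => forceN T.chkName x) 20941 423 = true := by decide +kernel
theorem cN_21364 : allRange (fun x => forceN T.chkName x) 21364 422 = true := by decide +kernel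
theorem cN_21786 : allRange (fun x => forceN T.chkName x) 21786 432 = true := by decide +kernel
theorem cN_22218 : allRange (fun x => forceN T.chkName x) 22218 426 = true := by decide +kernel
theorem cN_22644 : allRange (fun x => forceN T.chkName x) 22644 424 = true := by decide +kernel
theorem cN_23068 : allRange (fun x => forceN T.chkName x) 23068 431 = true := by decide +kernel
theorem cN_23499 : allRange (fun x => forceN T.chkName x) 23499 427 = true := by decide +kernel
theorem cN_23926 : allRange (fun x => forceN T.chkName x) 23926 423 = true := by decide +kernel
theorem cN_24349 : allRange (fun x => forceN T.chkName x) 24349 432 = true := by decide +kernel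
theorem cN_24781 : allRange (fun x => forceN T.chkName x) 24781 427 = true := by decide +kernel

end Cfsg.Agent.Lib.Helper56.Fi24V10
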