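import Mathlib
import Cfsg.Agent.Lib.Helper56.TC
import Cfsg.Agent.Lib.Helper56.Fi24V10.D
set_option autoImplicit false
set_option maxRecDepth 1000000

namespace Cfsg.Agent.Lib.Helper56.Fi24V10

open Cfsg.Agent.Lib.Helper56.TC Cfsg.Agent.Lib.Helper56.TC.Tabs

theorem cN_25208 : allRange (fun x => forceN T.chkName x) 25208 425 = true := by decide +kernel
theorem cN_25633 : allRange (fun x => forceN T.chkName x) 25633 435 = true := by decide +kernel
theorem cN_26068 : allRange (fun x => forceN T.chkName x) 26068 426 = true := by decide +kernel
theorem cN_26494 : allRange (fun x => forceN T.chkName x) 26494 430 = true := by decide +kernel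
theorem cN_26924 : allRange (fun x => forceN T.chkName x) 26924 432 = true := by decide +kernel
theorem cN_27356 : allRange (fun x => forceN T.chkName x) 27356 426 = true := by decide +kernel
theorem cN_27782 : allRange (fun x => forceN T.chkName x) 27782 434 = true := by decide +kernel
theorem cN_28216 : allRange (fun x => forceN T.chkName x) 28216 432 = true := by decide +kernel
theorem cN_28648 : allRange (fun x => forceN T.chkName x) 28648 429 = true := by decide +kernel
theorem cN_29077 : allRange (fun x => forceN T.chkName x) 29077 434 = true := by decide +kernel
theorem cN_29511 : allRange (fun x => forceN T.chkName x) 29511 429 = true := by decide +kernel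
theorem cN_29940 : allRange (fun x => forceN T.chkName x) 29940 420 = true := by decide +kernel

end Cfsg.Agent.Lib.Helper56.Fi24V10
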