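import Mathlib
import Cfsg.Agent.Lib.Helper56.TC
import Cfsg.Agent.Lib.Helper56.Fi24V10.D
set_option autoImplicit false
set_option maxRecDepth 1000000

namespace Cfsg.Agent.Lib.Helper56.Fi24V10

open Cfsg.Agent.Lib.Helper56.TC Cfsg.Agent.Lib.Helper56.TC.Tabs

theorem cN_30360 : allRange (fun x => forceN T.chkName x) 30360 425 = true := by decide +kernel
theorem cN_30785 : allRange (fun x => forceN T.chkName x) 30785 423 = true := by decide +kernel
theorem cN_31208 : allRange (fun x => forceN T.chkName x) 31208 419 = true := by decide +kernel
theorem cN_31627 : allRange (fun x => forceN T.chkName x) 31627 500 = true := by decide +kernel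
theorem cN_32127 : allRange (fun x => forceN T.chkName x) 32127 514 = true := by decide +kernel
theorem cN_32641 : allRange (fun x => forceN T.chkName x) 32641 530 = true := by decide +kernel
theorem cN_33171 : allRange (fun x => forceN T.chkName x) 33171 523 = true := by decide +kernel
theorem cN_33694 : allRange (fun x => forceN T.chkName x) 33694 535 = true := by decide +kernel
theorem cN_34229 : allRange (fun x => forceN T.chkName x) 34229 516 = true := by decide +kernel
theorem cN_34745 : allRange (fun x => forceN T.chkName x) 34745 537 = true := by decide +kernel
theorem cN_35282 : allRange (fun x => forceN T.chkName x) 35282 530 = true := by decide +kernel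
theorem cN_35812 : allRange (fun x => forceN T.chkName x) 35812 530 = true := by decide +kernel

end Cfsg.Agent.Lib.Helper56.Fi24V10
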