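import Mathlib
import Cfsg.Agent.Lib.Helper56.TC
import Cfsg.Agent.Lib.Helper56.Fi24V10.D
set_option autoImplicit false
set_option maxRecDepth 1000000

namespace Cfsg.Agent.Lib.Helper56.Fi24V10

open Cfsg.Agent.Lib.Helper56.TC Cfsg.Agent.Lib.Helper56.TC.Tabs

theorem cN_36342 : allRange (fun x => forceN T.chkName x) 36342 537 = true := by decide +kernel
theorem cN_36879 : allRange (fun x => forceN T.chkName x) 36879 541 = true := by decide +kernel
theorem cN_37420 : allRange (fun x => forceN T.chkName x) 37420 519 = true := by decide +kernel
theorem cN_37939 : allRange (fun x => forceN T.chkName x) 37939 530 = true := by decide +kernel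
theorem cN_38469 : allRange (fun x => forceN T.chkName x) 38469 536 = true := by decide +kernel
theorem cN_39005 : allRange (fun x => forceN T.chkName x) 39005 549 = true := by decide +kernel
theorem cN_39554 : allRange (fun x => forceN T.chkName x) 39554 528 = true := by decide +kernel
theorem cN_40082 : allRange (fun x => forceN T.chkName x) 40082 515 = true := by decide +kernel
theorem cN_40597 : allRange (fun x => forceN T.chkName x) 40597 534 = true := by decide +kernel
theorem cN_41131 : allRange (fun x => forceN T.chkName x) 41131 533 = true := by decide +kernel
theorem cN_41664 : allRange (fun x => forceN T.chkName x) 41664 547 = true := by decide +kernel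
theorem cN_42211 : allRange (fun x => forceN T.chkName x) 42211 536 = true := by decide +kernel

end Cfsg.Agent.Lib.Helper56.Fi24V10
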