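import Mathlib
import Cfsg.Agent.Lib.Helper56.TC
import Cfsg.Agent.Lib.Helper56.Fi24V10.D
set_option autoImplicit false
set_option maxRecDepth 1000000

namespace Cfsg.Agent.Lib.Helper56.Fi24V10

open Cfsg.Agent.Lib.Helper56.TC Cfsg.Agent.Lib.Helper56.TC.Tabs

theorem cN_42747 : allRange (fun x => forceN T.chkName x) 42747 528 = true := by decide +kernel
theorem cN_43275 : allRange (fun x => forceN T.chkName x) 43275 518 = true := by decide +kernel
theorem cN_43793 : allRange (fun x => forceN T.chkName x) 43793 526 = true := by decide +kernel
theorem cN_44319 : allRange (fun x => forceN T.chkName x) 44319 532 = true := by decide +kernel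
theorem cN_44851 : allRange (fun x => forceN T.chkName x) 44851 541 = true := by decide +kernel
theorem cN_45392 : allRange (fun x => forceN T.chkName x) 45392 541 = true := by decide +kernel
theorem cN_45933 : allRange (fun x => forceN T.chkName x) 45933 550 = true := by decide +kernel
theorem cN_46483 : allRange (fun x => forceN T.chkName x) 46483 526 = true := by decide +kernel
theorem cN_47009 : allRange (fun x => forceN T.chkName x) 47009 536 = true := by decide +kernel
theorem cN_47545 : allRange (fun x => forceN T.chkName x) 47545 516 = true := by decide +kernel
theorem cN_48061 : allRange (fun x => forceN T.chkName x) 48061 527 = true := by decide +kernel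
theorem cN_48588 : allRange (fun x => forceN T.chkName x) 48588 519 = true := by decide +kernel

end Cfsg.Agent.Lib.Helper56.Fi24V10
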