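import Mathlib
import Cfsg.Agent.Lib.Helper56.TC
import Cfsg.Agent.Lib.Helper56.Fi24V10.D
set_option autoImplicit false
set_option maxRecDepth 1000000

namespace Cfsg.Agent.Lib.Helper56.Fi24V10

open Cfsg.Agent.Lib.Helper56.TC Cfsg.Agent.Lib.Helper56.TC.Tabs

theorem cN_49107 : allRange (fun x => forceN T.chkName x) 49107 541 = true := by decide +kernel
theorem cN_49648 : allRange (fun x => forceN T.chkName x) 49648 539 = true := by decide +kernel
theorem cN_50187 : allRange (fun x => forceN T.chkName x) 50187 542 = true := by decide +kernel
theorem cN_50729 : allRange (fun x => forceN T.chkName x) 50729 552 = true := by decide +kernel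
theorem cN_51281 : allRange (fun x => forceN T.chkName x) 51281 535 = true := by decide +kernel
theorem cN_51816 : allRange (fun x => forceN T.chkName x) 51816 533 = true := by decide +kernel
theorem cN_52349 : allRange (fun x => forceN T.chkName x) 52349 529 = true := by decide +kernel
theorem cN_52878 : allRange (fun x => forceN T.chkName x) 52878 540 = true := by decide +kernel
theorem cN_53418 : allRange (fun x => forceN T.chkName x) 53418 517 = true := by decide +kernel
theorem cN_53935 : allRange (fun x => forceN T.chkName x) 53935 533 = true := by decide +kernel
theorem cN_54468 : allRange (fun x => forceN T.chkName x) 54468 526 = true := by decide +kernel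
theorem cN_54994 : allRange (fun x => forceN T.chkName x) 54994 527 = true := by decide +kernel

end Cfsg.Agent.Lib.Helper56.Fi24V10
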